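import Cfsg.Agent.Lib.Geometric.TensorForm.Grow
import Cfsg.Agent.Lib.Geometric.UnitaryVectors
import Cfsg.Agent.Lib.Geometric.UnitaryGen

/-!
# Tensor powers of a hermitian form: the calculus of partial forms

For an operator `X` on the tensor power and a position `i`, `beta D i X a b` is the operator of the
other positions `⟨X (a ⊗ ·), b ⊗ ·⟩`; it determines `X`, and all products with one-factor operators
are computed in it.
-/

set_option autoImplicit false
set_option linter.unusedSectionVars false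

namespace CfsgLib.Geometric.TensorHerm

open scoped Matrix MatrixGroups
open Matrix CfsgLib.SmallDim Cfsg.Geo CfsgLib.Geometric.TensorForm

variable {k t : ℕ} {F : Type*} [Field F]

local notation "Mk" => Matrix (Fin k) (Fin k) F
local notation "Mt" => Matrix (Fin t → Fin k) (Fin t → Fin k) F

/-- The operator `x ↦ f(x, w) u` of the factor form. -/
def rk (D : Datum k F) (u w : Fin k → F) : Mk := vecMulVec u (D.J *ᵥ (D.σ ∘ w))

/-- The automorphism is not trivial: the form is skew-hermitian. -/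
structure IsHerm (D : Datum k F) : Prop where
  ne : D.σ ≠ RingHom.id F

/-- The automorphism as an equivalence. -/
def se (D : Datum k F) : F ≃+* F := RingEquiv.ofRingHom D.σ D.σ
  (RingHom.ext D.invol) (RingHom.ext D.invol)

@[simp] lemma se_apply (D : Datum k F) (a : F) : se D a = D.σ a := rfl

variable {D : Datum k F}

lemma IsHerm.skewForm (hD : IsHerm D) : IsSkewForm (se D) D.f1 where
  ne_refl h := hD.ne (RingHom.ext fun a => congrArg (fun e : F ≃+* F => e a) h)
  involutive := D.invol
  add_left := D.f1_add_left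
  smul_left := D.f1_smul_left
  skew v w := D.f1_swap w v
  nondegenerate v hv := by
    have h1 : ∃ x, D.f1 x v ≠ 0 := by
      by_contra h
      push Not at h
      refine hv ?_
      have h0 : D.σ ∘ v = 0 := by
        refine Matrix.eq_zero_of_mulVec_eq_zero D.det ?_
        funext i
        simpa [Datum.f1] using h (Pi.single i 1)
      funext i
      exact D.σ.injective (by simpa using congrFun h0 i)
    obtain ⟨x, hx⟩ := h1
    exact ⟨⟨x, hx⟩, x, by
      rw [D.f1_swap x v, neg_ne_zero]
      exact (map_ne_zero D.σ).mpr hx⟩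

/-! ## Rank one operators -/

lemma rk_mulVec (u w x : Fin k → F) : rk D u w *ᵥ x = D.f1 x w • u := by
  rw [rk, Matrix.vecMulVec_mulVec, Datum.f1, dotProduct_comm x]
  simp

lemma nil_eq_rk (u : Fin k → F) : D.nil u = rk D u u := rfl

lemma rk_mul (a b c d : Fin k → F) : rk D a b * rk D c d = D.f1 c b • rk D a d := by
  rw [rk, rk, rk, Matrix.vecMulVec_mul_vecMulVec, Matrix.vecMulVec_smul, Datum.f1, dotProduct_comm]

lemma rk_add_left (u u' w : Fin k → F) : rk D (u + u') w = rk D u w + rk D u' w :=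
  Matrix.add_vecMulVec _ _ _

lemma rk_smul_left (s : F) (u w : Fin k → F) : rk D (s • u) w = s • rk D u w :=
  Matrix.smul_vecMulVec _ _ _

lemma comp_add (u w : Fin k → F) : D.σ ∘ (u + w) = D.σ ∘ u + D.σ ∘ w :=
  funext fun _ => map_add D.σ _ _

lemma comp_smul (s : F) (w : Fin k → F) : D.σ ∘ (s • w) = D.σ s • (D.σ ∘ w) :=
  funext fun _ => map_mul D.σ _ _

lemma rk_add_right (u w w' : Fin k → F) : rk D u (w + w') = rk D u w + rk D u w' := by
  rw [rk, rk, rk, comp_add, Matrix.mulVec_add, Matrix.vecMulVec_add]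

lemma rk_smul_right (s : F) (u w : Fin k → F) : rk D u (s • w) = D.σ s • rk D u w := by
  rw [rk, rk, comp_smul, Matrix.mulVec_smul, Matrix.vecMulVec_smul]

lemma f1_zero_right (x : Fin k → F) : D.f1 x 0 = 0 := by
  have h := D.f1_smul_right 0 x 0
  rwa [zero_smul, map_zero, zero_mul] at h

lemma rk_zero_left (w : Fin k → F) : rk D 0 w = 0 := by
  have h := rk_smul_left (D := D) 0 0 w
  rwa [zero_smul, zero_smul] at h

lemma rk_zero_right (u : Fin k → F) : rk D u 0 = 0 := by
  have h := rk_smul_right (D := D) 0 u 0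
  rwa [zero_smul, map_zero, zero_smul] at h

/-- Every functional is a pairing with a vector. -/
lemma exists_pairing (φ : Fin k → F) : ∃ b : Fin k → F, D.J *ᵥ (D.σ ∘ b) = φ := by
  refine ⟨D.σ ∘ (D.J⁻¹ *ᵥ φ), ?_⟩
  have : D.σ ∘ (D.σ ∘ (D.J⁻¹ *ᵥ φ)) = D.J⁻¹ *ᵥ φ := funext fun i => D.invol _
  rw [this, Matrix.mulVec_mulVec, Matrix.mul_nonsing_inv _ (isUnit_iff_ne_zero.mpr D.det),
    Matrix.one_mulVec]

/-! ## Partial traces -/

lemma ptrace_slot_mul (i : Fin t) (R : Mk) (φ c : Fin k → F) (X : Mt) :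
    ptrace i φ c (slot i R * X) = ptrace i (φ ᵥ* R) c X := by
  simp only [ptrace]
  refine Finset.sum_congr rfl fun p _ => ?_
  rw [← mul_assoc (slot i _) (slot i R) X, ← map_mul, Matrix.vecMulVec_mul]

lemma ptrace_mul_slot (i : Fin t) (R : Mk) (φ c : Fin k → F) (X : Mt) :
    ptrace i φ c (X * slot i R) = ptrace i φ (R *ᵥ c) X := by
  simp only [ptrace]
  refine Finset.sum_congr rfl fun p _ => ?_
  rw [mul_assoc, mul_assoc X, ← map_mul, Matrix.mul_vecMulVec, ← mul_assoc]

lemma ptrace_mul_free {i : Fin t} {Z : Mt} (hZ : SlotFree i Z) (φ c : Fin k → F) (X : Mt) :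
    ptrace i φ c (X * Z) = ptrace i φ c X * Z := by
  simp only [ptrace, Finset.sum_mul]
  refine Finset.sum_congr rfl fun p _ => ?_
  simp only [mul_assoc]
  rw [hZ]

lemma ptrace_free_mul {i : Fin t} {Z : Mt} (hZ : SlotFree i Z) (φ c : Fin k → F) (X : Mt) :
    ptrace i φ c (Z * X) = Z * ptrace i φ c X := by
  simp only [ptrace, Finset.mul_sum]
  refine Finset.sum_congr rfl fun p _ => ?_
  simp only [← mul_assoc]
  rw [hZ]

lemma ptrace_one (i : Fin t) (φ c : Fin k → F) :
    ptrace i φ c (1 : Mt) = (φ ⬝ᵥ c) • (1 : Mt) := by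
  simp only [ptrace, mul_one, ← map_mul, Matrix.vecMulVec_mul_vecMulVec, Matrix.vecMulVec_smul,
    map_smul, ← Finset.smul_sum, ← map_sum]
  have : ∑ p, vecMulVec (Pi.single p 1) (Pi.single p 1 : Fin k → F) = (1 : Mk) := by
    ext a b
    simp only [Matrix.sum_apply, Matrix.vecMulVec_apply, Pi.single_apply, Matrix.one_apply]
    by_cases h : a = b
    · subst h; simp
    · simp [h]
  rw [this, map_one]

lemma ptrace_add (i : Fin t) (φ c : Fin k → F) (X Y : Mt) :
    ptrace i φ c (X + Y) = ptrace i φ c X + ptrace i φ c Y := by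
  simp only [ptrace, mul_add, add_mul, Finset.sum_add_distrib]

lemma ptrace_smul (i : Fin t) (s : F) (φ c : Fin k → F) (X : Mt) :
    ptrace i φ c (s • X) = s • ptrace i φ c X := by
  simp only [ptrace, Matrix.mul_smul, Matrix.smul_mul, Finset.smul_sum]

/-- An operator is put together from its partial traces. -/
lemma sum_ptrace (i : Fin t) (X : Mt) :
    X = ∑ p : Fin k, ∑ r : Fin k, slot i (vecMulVec (Pi.single p 1) (Pi.single r 1)) *
      ptrace i (Pi.single p 1) (Pi.single r 1) X := by
  simp only [← sandwich_ptrace, ← Finset.mul_sum, ← map_sum]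
  rw [← Finset.sum_mul]
  have : ∑ p, vecMulVec (Pi.single p 1) (Pi.single p 1 : Fin k → F) = (1 : Mk) := by
    ext a b
    simp only [Matrix.sum_apply, Matrix.vecMulVec_apply, Pi.single_apply, Matrix.one_apply]
    by_cases h : a = b
    · subst h; simp
    · simp [h]
  rw [← Finset.sum_mul, ← map_sum, this, map_one, one_mul, mul_one]

/-! ## Partial forms -/

/-- The operator `⟨X (a ⊗ ·), b ⊗ ·⟩` of the positions other than `i`. -/
def beta (D : Datum k F) (i : Fin t) (X : Matrix (Fin t → Fin k) (Fin t → Fin k) F)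
    (a b : Fin k → F) : Matrix (Fin t → Fin k) (Fin t → Fin k) F :=
  ptrace i (D.J *ᵥ (D.σ ∘ b)) a X

variable {i : Fin t}

lemma beta_free (X : Mt) (a b : Fin k → F) : SlotFree i (beta D i X a b) := slotFree_ptrace _ _ _ _

lemma beta_free_of_free {l : Fin t} {X : Mt} (h : l ≠ i) (hX : SlotFree l X) (a b : Fin k → F) :
    SlotFree l (beta D i X a b) := hX.ptrace h _ _

lemma beta_add (X Y : Mt) (a b : Fin k → F) :
    beta D i (X + Y) a b = beta D i X a b + beta D i Y a b := ptrace_add _ _ _ _ _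

lemma beta_smul (s : F) (X : Mt) (a b : Fin k → F) :
    beta D i (s • X) a b = s • beta D i X a b := ptrace_smul _ _ _ _ _

lemma beta_zero (a b : Fin k → F) : beta D i (0 : Mt) a b = 0 := by
  have h := beta_smul (D := D) (i := i) 0 0 a b
  rwa [zero_smul, zero_smul] at h

lemma beta_neg (X : Mt) (a b : Fin k → F) : beta D i (-X) a b = -beta D i X a b := by
  rw [← neg_one_smul F, beta_smul, neg_one_smul]

lemma beta_sub (X Y : Mt) (a b : Fin k → F) :
    beta D i (X - Y) a b = beta D i X a b - beta D i Y a b := by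
  rw [sub_eq_add_neg, beta_add, beta_neg, sub_eq_add_neg]

lemma beta_add_left (X : Mt) (a a' b : Fin k → F) :
    beta D i X (a + a') b = beta D i X a b + beta D i X a' b := ptrace_add_right _ _ _ _ _

lemma beta_add_right (X : Mt) (a b b' : Fin k → F) :
    beta D i X a (b + b') = beta D i X a b + beta D i X a b' := by
  rw [beta, comp_add, Matrix.mulVec_add, ptrace_add_left]; rfl

lemma beta_smul_left (X : Mt) (s : F) (a b : Fin k → F) :
    beta D i X (s • a) b = s • beta D i X a b := ptrace_smul_right _ _ _ _ _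

lemma beta_smul_right (X : Mt) (s : F) (a b : Fin k → F) :
    beta D i X a (s • b) = D.σ s • beta D i X a b := by
  rw [beta, comp_smul, Matrix.mulVec_smul, ptrace_smul_left]; rfl

lemma beta_one (a b : Fin k → F) : beta D i (1 : Mt) a b = D.f1 a b • (1 : Mt) := by
  rw [beta, ptrace_one, Datum.f1, dotProduct_comm]

lemma beta_mul_free {Z : Mt} (hZ : SlotFree i Z) (X : Mt) (a b : Fin k → F) :
    beta D i (X * Z) a b = beta D i X a b * Z := ptrace_mul_free hZ _ _ _

lemma beta_free_mul {Z : Mt} (hZ : SlotFree i Z) (X : Mt) (a b : Fin k → F) :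
    beta D i (Z * X) a b = Z * beta D i X a b := ptrace_free_mul hZ _ _ _

lemma beta_of_free {Z : Mt} (hZ : SlotFree i Z) (a b : Fin k → F) :
    beta D i Z a b = D.f1 a b • Z := by
  conv_lhs => rw [← one_mul Z, beta_mul_free hZ, beta_one, Matrix.smul_mul, one_mul]

lemma beta_slot_mul (p q : Fin k → F) (X : Mt) (a b : Fin k → F) :
    beta D i (slot i (rk D p q) * X) a b = D.f1 p b • beta D i X a q := by
  rw [beta, ptrace_slot_mul, rk, Matrix.vecMul_vecMulVec, ptrace_smul_left, dotProduct_comm]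
  rfl

lemma beta_mul_slot (p q : Fin k → F) (X : Mt) (a b : Fin k → F) :
    beta D i (X * slot i (rk D p q)) a b = D.f1 a q • beta D i X p b := by
  rw [beta, ptrace_mul_slot, rk_mulVec, ptrace_smul_right]
  rfl

lemma beta_slot_mul' (R : Mk) (X : Mt) (a : Fin k → F) {b b' : Fin k → F}
    (h : ∀ x, D.f1 (R *ᵥ x) b = D.f1 x b') :
    beta D i (slot i R * X) a b = beta D i X a b' := by
  rw [beta, ptrace_slot_mul, beta]
  congr 1
  refine dotProduct_eq _ _ fun x => ?_
  rw [← Matrix.dotProduct_mulVec, dotProduct_comm, dotProduct_comm _ x]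
  exact h x

lemma beta_mul_slot' (R : Mk) (X : Mt) (a b : Fin k → F) :
    beta D i (X * slot i R) a b = beta D i X (R *ᵥ a) b := ptrace_mul_slot _ _ _ _ _

lemma beta_slot (R : Mk) (a b : Fin k → F) :
    beta D i (slot i R) a b = D.f1 (R *ᵥ a) b • (1 : Mt) := by
  conv_lhs => rw [← one_mul (slot i R), beta_mul_slot', beta_one]

lemma beta_rk_mul_free {Z : Mt} (hZ : SlotFree i Z) (p q a b : Fin k → F) :
    beta D i (slot i (rk D p q) * Z) a b = (D.f1 p b * D.f1 a q) • Z := by
  rw [beta_slot_mul, beta_of_free hZ, smul_smul]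

/-- The partial forms determine the operator. -/
lemma ext_beta {X Y : Mt} (h : ∀ a b, beta D i X a b = beta D i Y a b) : X = Y := by
  rw [sum_ptrace i X, sum_ptrace i Y]
  refine Finset.sum_congr rfl fun p _ => Finset.sum_congr rfl fun r _ => ?_
  obtain ⟨b, hb⟩ := exists_pairing (D := D) (Pi.single p 1 : Fin k → F)
  have := h (Pi.single r 1) b
  rw [beta, beta, hb] at this
  rw [this]

/-! ## Elements of one factor -/

/-- A factorwise element of one position. -/
abbrev slotGL (i : Fin t) : GL (Fin k) F →* GL (Fin t → Fin k) F := slotHom i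

lemma slotGL_val (i : Fin t) (a : GL (Fin k) F) : (slotGL i a : Mt) = slot i (a : Mk) :=
  slotHom_val i a

lemma slotGL_mem_wreath (i : Fin t) (a : GL (Fin k) F) :
    slotGL i a ∈ tensorWreathStandard k t F :=
  Subgroup.subset_closure (Or.inl ⟨Pi.mulSingle i a, fun _ _ => rfl⟩)

/-- The operator of an Eichler element: `rk x u + rk u x + c rk u u`. -/
def eich (D : Datum k F) (u x : Fin k → F) (c : F) : Mk :=
  rk D x u + rk D u x + c • rk D u u

lemma E_val (hD : IsHerm D) {u x : Fin k → F} {c : F} (hu : D.f1 u u = 0) (hxu : D.f1 x u = 0) :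
    ((Unitary.E hD.skewForm u x c hu hxu : GL (Fin k) F) : Mk) = 1 + eich D u x c := by
  refine Matrix.ext_of_mulVec_single fun p => ?_
  rw [← ap_def, Unitary.ap_E, eich]
  simp only [Matrix.add_mulVec, Matrix.one_mulVec, Matrix.smul_mulVec, rk_mulVec, smul_smul]
  abel

/-- The factorwise Eichler element. -/
def slotE (hD : IsHerm D) (i : Fin t) {u x : Fin k → F} (c : F) (hu : D.f1 u u = 0)
    (hxu : D.f1 x u = 0) : GL (Fin t → Fin k) F :=
  slotGL i (Unitary.E hD.skewForm u x c hu hxu)

lemma slotE_val (hD : IsHerm D) (i : Fin t) {u x : Fin k → F} (c : F) (hu : D.f1 u u = 0)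
    (hxu : D.f1 x u = 0) : (slotE hD i c hu hxu : Mt) = 1 + slot i (eich D u x c) := by
  rw [slotE, slotGL_val, E_val hD hu hxu, map_add, map_one]

/-- The inverse of an Eichler element. -/
lemma slotE_inv_val (hD : IsHerm D) (i : Fin t) {u x : Fin k → F} {c : F} (hu : D.f1 u u = 0)
    (hxu : D.f1 x u = 0) (hc : c - D.σ c = D.f1 x x) :
    (((slotE hD i c hu hxu)⁻¹ : GL (Fin t → Fin k) F) : Mt) =
      1 + slot i (eich D u (-x) (-D.σ c)) := by
  have hux : D.f1 u x = 0 := by rw [D.f1_swap x u, hxu, map_zero, neg_zero]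
  have e : (1 + eich D u x c) * (1 + eich D u (-x) (-D.σ c)) = (1 : Mk) := by
    have hn : ∀ w : Fin k → F, -w = (-1 : F) • w := fun w => by simp
    simp only [eich, hn x, rk_smul_left, rk_smul_right, map_neg, map_one, mul_add, add_mul,
      one_mul, mul_one, Matrix.smul_mul, Matrix.mul_smul, smul_smul, rk_mul, hu, hux, hxu,
      zero_smul]
    rw [← hc]
    module
  have h1 : (slotE hD i c hu hxu : Mt) * (1 + slot i (eich D u (-x) (-D.σ c))) = 1 := by
    rw [slotE_val, show (1 : Mt) = slot i (1 : Mk) from (map_one _).symm, ← map_add, ← map_add,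
      ← map_mul, e]
  calc (((slotE hD i c hu hxu)⁻¹ : GL (Fin t → Fin k) F) : Mt)
      = (((slotE hD i c hu hxu)⁻¹ : GL (Fin t → Fin k) F) : Mt) *
          ((slotE hD i c hu hxu : Mt) * (1 + slot i (eich D u (-x) (-D.σ c)))) := by
        rw [h1, mul_one]
    _ = _ := by rw [← mul_assoc, Units.inv_mul, one_mul]

lemma eich_zero (u : Fin k → F) (c : F) : eich D u 0 c = c • rk D u u := by
  simp [eich, rk_zero_left, rk_zero_right]

/-- A scalar with trace one. -/
lemma IsHerm.exists_trace (hD : IsHerm D) : ∃ θ : F, θ + D.σ θ = 1 :=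
  Unitary.exists_trace hD.skewForm

/-- Every skew value is a difference `c - σ c`. -/
lemma IsHerm.exists_c (hD : IsHerm D) (x : Fin k → F) : ∃ c, c - D.σ c = D.f1 x x :=
  Unitary.exists_sub_eq hD.skewForm (Unitary.skew_self hD.skewForm x)

/-! ## Overgroups -/

variable (D) in
/-- A group of isometries acting on the positions `act`, holding the factorwise special isometries
and the cyclic exchanges there. -/
structure Over (act : Finset (Fin t)) (M : Subgroup (GL (Fin t → Fin k) F)) : Prop where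
  le : M ≤ D.isom t
  free : ∀ g ∈ M, ∀ l ∉ act, SlotFree l (g : Matrix (Fin t → Fin k) (Fin t → Fin k) F)
  slot_mem : ∀ l ∈ act, ∀ a ∈ CfsgLib.Geometric.isom D.f1 ⊓ Cfsg.Geo.specialLinear (Fin k) F,
    slotGL l a ∈ M
  cyc_mem : ∀ a ∈ act, ∀ b ∈ act, ∀ c ∈ act, a ≠ b → b ≠ c → a ≠ c →
    (factorPerm (Equiv.swap a c * Equiv.swap a b) : GL (Fin t → Fin k) F) ∈ M

variable {act : Finset (Fin t)} {M : Subgroup (GL (Fin t → Fin k) F)}

lemma Over.slotE_mem (hM : Over D act M) (hD : IsHerm D) {l : Fin t} (hl : l ∈ act)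
    {u x : Fin k → F} {c : F} (hu : D.f1 u u = 0) (hxu : D.f1 x u = 0)
    (hc : c - D.σ c = D.f1 x x) : slotE hD l c hu hxu ∈ M :=
  hM.slot_mem l hl _ (Unitary.E_mem hD.skewForm hc)

/-- The factorwise transvection. -/
lemma Over.exists_tr (hM : Over D act M) (hD : IsHerm D) {l : Fin t} (hl : l ∈ act)
    {u : Fin k → F} (hu : D.f1 u u = 0) {a : F} (ha : D.σ a = a) :
    ∃ g ∈ M, (g : Mt) = 1 + a • D.nilSlot l u := by
  have h0 : D.f1 (0 : Fin k → F) u = 0 := D.f1_zero_left u
  refine ⟨slotE hD l a hu h0, hM.slotE_mem hD hl hu h0 (by rw [ha, sub_self, D.f1_zero_left]), ?_⟩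
  rw [slotE_val, eich_zero, map_smul]
  rfl

lemma Over.good_nilSlot (hM : Over D act M) (hD : IsHerm D) {l : Fin t} (hl : l ∈ act)
    {u : Fin k → F} (hu : D.f1 u u = 0) {a : F} (ha : D.σ a = a) :
    Good M (a • D.nilSlot l u) :=
  ⟨Datum.smul_sq (D.nilSlot_mul_self hu) a, hM.exists_tr hD hl hu ha⟩

variable (D) in
/-- `M` holds a transvection at a pure tensor of isotropic vectors on the positions `act`. -/
def HasPure (act : Finset (Fin t)) (M : Subgroup (GL (Fin t → Fin k) F)) : Prop :=
  ∃ (w : Fin t → Fin k → F) (κ : F), κ ≠ 0 ∧ (∀ l ∈ act, w l ≠ 0 ∧ D.f1 (w l) (w l) = 0) ∧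
    Good M (κ • pureMat fun l => if l ∈ act then D.nil (w l) else 1)

end CfsgLib.Geometric.TensorHerm
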