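import Cfsg.Agent.Lib.Geometric.TensorHerm.Sesq

/-!
# Splitting off one factor

A set of operators closed under differences and under conjugation by the Eichler elements of one
position contains, with any element not commuting with that factor, a product of a square-zero
operator of the factor and a partial form of the element.
-/

set_option autoImplicit false
set_option linter.unusedSectionVars false

namespace CfsgLib.Geometric.TensorHerm

open scoped Matrix MatrixGroups
open Matrix CfsgLib.SmallDim Cfsg.Geo CfsgLib.Geometric.TensorForm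

variable {k t : ℕ} {F : Type*} [Field F] {D : Datum k F} {i : Fin t}

local notation "Mk" => Matrix (Fin k) (Fin k) F
local notation "Mt" => Matrix (Fin t → Fin k) (Fin t → Fin k) F

/-- Conjugation by a factorwise isometry moves the arguments of the partial forms. -/
lemma beta_conj {a : GL (Fin k) F} (ha : a ∈ CfsgLib.Geometric.isom D.f1) (X : Mt)
    (p q : Fin k → F) :
    beta D i ((slotGL i a : Mt) * X * (((slotGL i a)⁻¹ : GL (Fin t → Fin k) F) : Mt)) p q =
      beta D i X (ap a⁻¹ p) (ap a⁻¹ q) := by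
  rw [← map_inv, slotGL_val, slotGL_val, beta_mul_slot', ← ap_def,
    beta_slot_mul' _ _ _ (b' := ap a⁻¹ q)]
  intro x
  have h := CfsgLib.Geometric.mem_isom_iff.mp ha x (ap a⁻¹ q)
  rw [ap_ap_inv] at h
  rw [← ap_def]
  exact h

/-- The inverse Eichler element on a vector. -/
lemma ap_E_inv (hD : IsHerm D) {u x : Fin k → F} {c : F} (hu : D.f1 u u = 0)
    (hxu : D.f1 x u = 0) (hc : c - D.σ c = D.f1 x x) (p : Fin k → F) :
    ap (Unitary.E hD.skewForm u x c hu hxu)⁻¹ p =
      p - D.f1 p u • x - D.f1 p x • u - (D.σ c * D.f1 p u) • u := by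
  refine ap_injective (Unitary.E hD.skewForm u x c hu hxu) ?_
  have hux : D.f1 u x = 0 := by rw [D.f1_swap x u, hxu, map_zero, neg_zero]
  rw [ap_ap_inv, Unitary.ap_E]
  simp only [Unitary.sub_left hD.skewForm, D.f1_smul_left, hu, hxu, hux]
  rw [← hc]
  module

/-- The beta formula of a conjugate by an Eichler element. -/
lemma beta_slotE_conj (hD : IsHerm D) {u x : Fin k → F} {c : F} (hu : D.f1 u u = 0)
    (hxu : D.f1 x u = 0) (hc : c - D.σ c = D.f1 x x) (X : Mt) (p q : Fin k → F) :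
    beta D i ((slotE hD i c hu hxu : Mt) * X *
        (((slotE hD i c hu hxu)⁻¹ : GL (Fin t → Fin k) F) : Mt)) p q =
      beta D i X (p - D.f1 p u • x - D.f1 p x • u - (D.σ c * D.f1 p u) • u)
        (q - D.f1 q u • x - D.f1 q x • u - (D.σ c * D.f1 q u) • u) := by
  rw [slotE, beta_conj (Unitary.E_mem hD.skewForm hc).1, ap_E_inv hD hu hxu hc,
    ap_E_inv hD hu hxu hc]

lemma beta_sub_left (X : Mt) (a a' b : Fin k → F) :
    beta D i X (a - a') b = beta D i X a b - beta D i X a' b := by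
  rw [sub_eq_add_neg, beta_add_left, ← neg_one_smul F a', beta_smul_left, neg_one_smul,
    sub_eq_add_neg]

lemma beta_sub_right (X : Mt) (a b b' : Fin k → F) :
    beta D i X a (b - b') = beta D i X a b - beta D i X a b' := by
  rw [sub_eq_add_neg, beta_add_right, ← neg_one_smul F b', beta_smul_right, map_neg, map_one,
    neg_one_smul, sub_eq_add_neg]

/-- An element not commuting with the factor `i` yields a product with a factorwise square-zero
operator and its partial form. -/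
theorem exists_extract [Finite F] (hD : IsHerm D) (hk : 3 ≤ k)
    {𝔅 : Set (Matrix (Fin t → Fin k) (Fin t → Fin k) F)}
    (hsub : ∀ X ∈ 𝔅, ∀ Y ∈ 𝔅, X - Y ∈ 𝔅)
    (hconj : ∀ (u x : Fin k → F) (c : F) (hu : D.f1 u u = 0) (hxu : D.f1 x u = 0),
      c - D.σ c = D.f1 x x → ∀ X ∈ 𝔅, (slotE hD i c hu hxu : Mt) * X *
        (((slotE hD i c hu hxu)⁻¹ : GL (Fin t → Fin k) F) : Mt) ∈ 𝔅)
    {X : Mt} (hX : X ∈ 𝔅) (hnf : ¬ SlotFree i X) :
    ∃ u, u ≠ 0 ∧ D.f1 u u = 0 ∧ beta D i X u u ≠ 0 ∧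
      slot i (D.nil u) * beta D i X u u ∈ 𝔅 := by
  obtain ⟨u, hu, hα⟩ : ∃ u, D.f1 u u = 0 ∧ beta D i X u u ≠ 0 := by
    by_contra hc
    push Not at hc
    exact hnf (slotFree_of_isotropic hD (by omega) hc)
  have hu0 : u ≠ 0 := fun h => hα (by
    rw [h, ← zero_smul F (0 : Fin k → F), beta_smul_left, zero_smul])
  refine ⟨u, hu0, hu, hα, ?_⟩
  obtain ⟨x, hxu, hxx⟩ := hD.exists_aniso_perp hk u
  obtain ⟨θ, hθ⟩ := hD.exists_trace
  set x₂ := (θ / D.f1 x x) • x with hx₂
  have hx₂u : D.f1 x₂ u = 0 := by rw [hx₂, D.f1_smul_left, hxu, mul_zero]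
  have hx₂x : D.f1 x₂ x = θ := by rw [hx₂, D.f1_smul_left, div_mul_cancel₀ _ hxx]
  have hux₂ : D.f1 u x₂ = 0 := by rw [D.f1_swap x₂ u, hx₂u, map_zero, neg_zero]
  have h0u : D.f1 (0 : Fin k → F) u = 0 := D.f1_zero_left u
  obtain ⟨c, hc⟩ := hD.exists_c x
  obtain ⟨c₂, hc₂⟩ := hD.exists_c x₂
  have h1 : (1 : F) - D.σ 1 = D.f1 (0 : Fin k → F) 0 := by
    rw [map_one, sub_self, D.f1_zero_left]
  set X₁ := (slotE hD i c hu hxu : Mt) * X *
    (((slotE hD i c hu hxu)⁻¹ : GL (Fin t → Fin k) F) : Mt) - X with hX₁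
  set X₂ := (slotE hD i c₂ hu hx₂u : Mt) * X₁ *
    (((slotE hD i c₂ hu hx₂u)⁻¹ : GL (Fin t → Fin k) F) : Mt) - X₁ with hX₂
  set X₃ := (slotE hD i 1 hu h0u : Mt) * X₂ *
    (((slotE hD i 1 hu h0u)⁻¹ : GL (Fin t → Fin k) F) : Mt) - X₂ with hX₃
  have m₁ : X₁ ∈ 𝔅 := hsub _ (hconj _ _ _ hu hxu hc _ hX) _ hX
  have m₂ : X₂ ∈ 𝔅 := hsub _ (hconj _ _ _ hu hx₂u hc₂ _ m₁) _ m₁
  have m₃ : X₃ ∈ 𝔅 := hsub _ (hconj _ _ _ hu h0u h1 _ m₂) _ m₂
  set α := beta D i X u u with hαdef
  have hαf : SlotFree i α := beta_free X u u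
  have b₁ : beta D i X₁ u u = 0 := by
    have hux : D.f1 u x = 0 := by rw [D.f1_swap x u, hxu, map_zero, neg_zero]
    rw [hX₁, beta_sub, beta_slotE_conj hD hu hxu hc]
    simp [hu, hux]
  have b₁r : beta D i X₁ u x₂ = -(D.σ θ) • α := by
    have hux : D.f1 u x = 0 := by rw [D.f1_swap x u, hxu, map_zero, neg_zero]
    rw [hX₁, beta_sub, beta_slotE_conj hD hu hxu hc, hu, hux, hx₂u, hx₂x]
    simp only [mul_zero, zero_smul, sub_zero, beta_sub_right, beta_smul_right]
    rw [hαdef]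
    module
  have b₁l : beta D i X₁ x₂ u = -θ • α := by
    have hux : D.f1 u x = 0 := by rw [D.f1_swap x u, hxu, map_zero, neg_zero]
    rw [hX₁, beta_sub, beta_slotE_conj hD hu hxu hc, hu, hux, hx₂u, hx₂x]
    simp only [mul_zero, zero_smul, sub_zero, beta_sub_left, beta_smul_left]
    rw [hαdef]
    module
  have b₂ : beta D i X₂ u u = 0 := by
    rw [hX₂, beta_sub, beta_slotE_conj hD hu hx₂u hc₂, hu, hux₂]
    simp
  have b₂r : ∀ q, beta D i X₂ u q = (D.σ (D.f1 q u) * D.σ θ) • α := by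
    intro q
    rw [hX₂, beta_sub, beta_slotE_conj hD hu hx₂u hc₂, hu, hux₂]
    simp only [mul_zero, zero_smul, sub_zero, beta_sub_right, beta_smul_right, b₁, b₁r, smul_zero,
      sub_zero, smul_smul]
    module
  have b₂l : ∀ p, beta D i X₂ p u = (D.f1 p u * θ) • α := by
    intro p
    rw [hX₂, beta_sub, beta_slotE_conj hD hu hx₂u hc₂, hu, hux₂]
    simp only [mul_zero, zero_smul, sub_zero, beta_sub_left, beta_smul_left, b₁, b₁l, smul_zero,
      sub_zero, smul_smul]
    module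
  suffices h : X₃ = slot i (D.nil u) * α from h ▸ m₃
  refine ext_beta (D := D) (i := i) fun p q => ?_
  rw [nil_eq_rk, beta_rk_mul_free hαf, hX₃, beta_sub, beta_slotE_conj hD hu h0u h1,
    D.f1_swap q u]
  simp only [map_one, one_mul, smul_zero, sub_zero, f1_zero_right, zero_smul, beta_sub_left,
    beta_sub_right, beta_smul_left, beta_smul_right, b₂r, b₂l, Unitary.sub_left hD.skewForm, D.f1_smul_left, hu, mul_zero, smul_zero,
    sub_zero, smul_smul]
  match_scalars <;> first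
    | ring1
    | linear_combination -(D.f1 p u * D.σ (D.f1 q u)) * hθ

end CfsgLib.Geometric.TensorHerm
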