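import Cfsg.Agent.Lib.Geometric.TensorHerm.Basic

/-!
# Sesquilinear maps vanishing on isotropic vectors

A sesquilinear map on the factor space vanishing at all isotropic vectors is a multiple of the
form; so an operator whose partial forms vanish there commutes with the whole factor.
-/

set_option autoImplicit false
set_option linter.unusedSectionVars false

namespace CfsgLib.Geometric.TensorHerm

open scoped Matrix MatrixGroups
open Matrix CfsgLib.SmallDim Cfsg.Geo CfsgLib.Geometric.TensorForm

variable {k t : ℕ} {F : Type*} [Field F] {D : Datum k F}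

local notation "Mt" => Matrix (Fin t → Fin k) (Fin t → Fin k) F

/-- A sesquilinear map. -/
structure Sesq (D : Datum k F) {V : Type*} [AddCommGroup V] [Module F V]
    (B : (Fin k → F) → (Fin k → F) → V) : Prop where
  add_left : ∀ a a' b, B (a + a') b = B a b + B a' b
  smul_left : ∀ (s : F) a b, B (s • a) b = s • B a b
  add_right : ∀ a b b', B a (b + b') = B a b + B a b'
  smul_right : ∀ (s : F) a b, B a (s • b) = D.σ s • B a b

lemma sesq_beta (D : Datum k F) (i : Fin t) (X : Mt) : Sesq D (beta D i X) :=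
  ⟨fun a a' b => beta_add_left X a a' b, fun s a b => beta_smul_left X s a b,
    fun a b b' => beta_add_right X a b b', fun s a b => beta_smul_right X s a b⟩

lemma Sesq.comp {V V' : Type*} [AddCommGroup V] [Module F V] [AddCommGroup V'] [Module F V']
    {B : (Fin k → F) → (Fin k → F) → V} (hB : Sesq D B) (φ : V →ₗ[F] V') :
    Sesq D fun a b => φ (B a b) :=
  ⟨fun a a' b => by rw [hB.add_left, map_add], fun s a b => by rw [hB.smul_left, map_smul],
    fun a b b' => by rw [hB.add_right, map_add], fun s a b => by rw [hB.smul_right, map_smul]⟩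

/-- A hyperbolic pair. -/
lemma IsHerm.exists_hyperbolic [Finite F] (hD : IsHerm D) (hk : 2 ≤ k) :
    ∃ u v, D.f1 u u = 0 ∧ D.f1 v v = 0 ∧ D.f1 v u = 1 := by
  have hf := hD.skewForm
  obtain ⟨u, -, hu0, hu⟩ := Unitary.exists_isotropic hf
    (S := Unitary.perp hf (⊥ : Submodule F (Fin k → F)))
    (Unitary.perp_nondegenerate hf fun x hx hne => absurd ((Submodule.mem_bot F).mp hx) hne)
    (by
      have h := Unitary.finrank_add_perp hf (W := (⊥ : Submodule F (Fin k → F)))
        fun x hx hne => absurd ((Submodule.mem_bot F).mp hx) hne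
      rw [finrank_bot, zero_add, Fintype.card_fin] at h
      omega)
  obtain ⟨p, hp⟩ := (hf.nondegenerate u hu0).1
  obtain ⟨l, hl⟩ := Unitary.exists_isotropic_shift hf hu hp
  refine ⟨u, (D.f1 p u)⁻¹ • (p + l • u), hu, Unitary.isotropic_smul hf hl _, ?_⟩
  rw [D.f1_smul_left, D.f1_add_left, D.f1_smul_left, hu, mul_zero, add_zero, inv_mul_cancel₀ hp]

/-- A partner of an isotropic vector. -/
lemma IsHerm.exists_partner (hD : IsHerm D) {u : Fin k → F} (hu0 : u ≠ 0) (hu : D.f1 u u = 0) :
    ∃ v, D.f1 v v = 0 ∧ D.f1 v u = 1 := by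
  have hf := hD.skewForm
  obtain ⟨p, hp⟩ := (hf.nondegenerate u hu0).1
  obtain ⟨l, hl⟩ := Unitary.exists_isotropic_shift hf hu hp
  refine ⟨(D.f1 p u)⁻¹ • (p + l • u), Unitary.isotropic_smul hf hl _, ?_⟩
  rw [D.f1_smul_left, D.f1_add_left, D.f1_smul_left, hu, mul_zero, add_zero, inv_mul_cancel₀ hp]

/-- An anisotropic vector orthogonal to a given one. -/
lemma IsHerm.exists_aniso_perp [Finite F] (hD : IsHerm D) (hk : 3 ≤ k) (u : Fin k → F) :
    ∃ x, D.f1 x u = 0 ∧ D.f1 x x ≠ 0 := by
  have hf := hD.skewForm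
  by_contra hc
  push Not at hc
  set U := Submodule.span F {u}
  have hP : ∀ z ∈ Unitary.perp hf U, D.f1 z z = 0 := fun z hz =>
    hc z ((Unitary.mem_perp_span hf).mp hz)
  have hle : Unitary.perp hf U ≤ U := fun z hz => Unitary.mem_of_forall_perp hf fun p hp =>
    Unitary.totallySingular_of_isotropic hf hP hz hp
  have h1 : Module.finrank F U ≤ 1 := by
    have := finrank_span_finset_le_card (R := F) ({u} : Finset (Fin k → F))
    rwa [Set.finrank, Finset.coe_singleton, Finset.card_singleton] at this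
  have h2 := Unitary.card_le_finrank_add_finrank_perp hf U
  have h3 := Submodule.finrank_mono hle
  rw [Fintype.card_fin] at h2
  omega

/-- The scalar case. -/
lemma sesq_eq_mul [Finite F] (hD : IsHerm D) (hk : 2 ≤ k)
    {B : (Fin k → F) → (Fin k → F) → F} (hB : Sesq D B) (h : ∀ u, D.f1 u u = 0 → B u u = 0) :
    ∃ κ : F, ∀ a b, B a b = D.f1 a b * κ := by
  have hf := hD.skewForm
  obtain ⟨u, v, hu, hv, hvu⟩ := hD.exists_hyperbolic hk
  have huv : D.f1 u v = -1 := by rw [D.f1_swap v u, hvu, map_one]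
  refine ⟨B v u, fun a b => ?_⟩
  set C : (Fin k → F) → (Fin k → F) → F := fun a b => B a b - D.f1 a b * B v u with hCdef
  have hC : Sesq D C :=
    ⟨fun a a' b => by simp only [hCdef, hB.add_left, D.f1_add_left]; ring,
      fun s a b => by simp only [hCdef, hB.smul_left, D.f1_smul_left, smul_eq_mul]; ring,
      fun a b b' => by simp only [hCdef, hB.add_right, D.f1_add_right]; ring,
      fun s a b => by simp only [hCdef, hB.smul_right, D.f1_smul_right, smul_eq_mul]; ring⟩
  have hi : ∀ w, D.f1 w w = 0 → C w w = 0 := fun w hw => by simp [hCdef, h w hw, hw]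
  have hCvu : C v u = 0 := by simp [hCdef, hvu]
  have hCuv : C u v = 0 := by
    have h1 := hi (u + v) (by
      simp only [D.f1_add_left, D.f1_add_right, hu, hv, hvu, huv]; ring)
    rw [hC.add_left, hC.add_right, hC.add_right, hi u hu, hi v hv, hCvu] at h1
    simpa using h1
  -- the vectors orthogonal to the pair
  have hperp : ∀ x, D.f1 x u = 0 → D.f1 x v = 0 →
      C x u = 0 ∧ C u x = 0 ∧ C x v = 0 ∧ C v x = 0 ∧ C x x = 0 := by
    intro x hxu hxv
    have hux : D.f1 u x = 0 := by rw [D.f1_swap x u, hxu, map_zero, neg_zero]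
    have hvx : D.f1 v x = 0 := by rw [D.f1_swap x v, hxv, map_zero, neg_zero]
    obtain ⟨c, hc⟩ := hD.exists_c x
    have hrel : ∀ e : F, D.σ e = e →
        C x v + D.σ (c + e) * C x u = 0 ∧ C v x + (c + e) * C u x = 0 ∧ C x x = 0 := by
      intro e he
      refine Unitary.norm_one_indep hf fun ω hω => ?_
      have hω' : ω * D.σ ω = 1 := hω
      have hwi : D.f1 (v + ω • x + (c + e) • u) (v + ω • x + (c + e) • u) = 0 := by
        simp only [D.f1_add_left, D.f1_add_right, D.f1_smul_left, D.f1_smul_right, hu, hv, hvu,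
          huv, hux, hxu, hvx, hxv, map_add, he]
        linear_combination D.f1 x x * hω' - hc
      have h1 := hi _ hwi
      simp only [hC.add_left, hC.add_right, hC.smul_left, hC.smul_right, smul_eq_mul, hi u hu,
        hi v hv, hCvu, hCuv, map_add, he, mul_zero, add_zero, zero_add] at h1
      rw [map_add, he]
      show (C x v + (D.σ c + e) * C x u) * ω + (C v x + (c + e) * C u x) * D.σ ω + C x x = 0
      linear_combination h1 - C x x * hω'
    obtain ⟨a0, b0, e0⟩ := hrel 0 (map_zero _)
    obtain ⟨a1, b1, -⟩ := hrel 1 (map_one _)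
    rw [add_zero] at a0 b0
    rw [map_add, map_one] at a1
    have hxu' : C x u = 0 := by linear_combination a1 - a0
    have hux' : C u x = 0 := by linear_combination b1 - b0
    exact ⟨hxu', hux', by linear_combination a0 - D.σ c * hxu',
      by linear_combination b0 - c * hux', e0⟩
  have hmid : ∀ x y, D.f1 x u = 0 → D.f1 x v = 0 → D.f1 y u = 0 → D.f1 y v = 0 → C x y = 0 := by
    intro x y h1 h2 h3 h4
    obtain ⟨l, hl⟩ := Unitary.exists_not_fixed hf
    have hp : ∀ s : F, D.σ s * C x y + s * C y x = 0 := fun s => by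
      have h5 := (hperp (x + s • y) (by rw [D.f1_add_left, D.f1_smul_left, h1, h3]; ring)
        (by rw [D.f1_add_left, D.f1_smul_left, h2, h4]; ring)).2.2.2.2
      simp only [hC.add_left, hC.add_right, hC.smul_left, hC.smul_right, smul_eq_mul,
        (hperp x h1 h2).2.2.2.2, (hperp y h3 h4).2.2.2.2, mul_zero, add_zero, zero_add] at h5
      linear_combination h5
    have h6 := hp 1
    rw [map_one] at h6
    refine (mul_eq_zero.mp (?_ : (D.σ l - l) * C x y = 0)).resolve_left (sub_ne_zero.mpr hl)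
    linear_combination hp l - l * h6
  have hdec : ∀ a, ∃ (α β : F) (a₀ : Fin k → F),
      a = α • u + β • v + a₀ ∧ D.f1 a₀ u = 0 ∧ D.f1 a₀ v = 0 := fun a =>
    ⟨-D.f1 a v, D.f1 a u, a + D.f1 a v • u - D.f1 a u • v, by module, by
      rw [Unitary.sub_left hf, D.f1_add_left, D.f1_smul_left, D.f1_smul_left, hu, hvu]; ring, by
      rw [Unitary.sub_left hf, D.f1_add_left, D.f1_smul_left, D.f1_smul_left, huv, hv]; ring⟩
  obtain ⟨α, β, a₀, rfl, ha, ha'⟩ := hdec a
  obtain ⟨γ, δ, b₀, rfl, hb, hb'⟩ := hdec b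
  have hzero : C (α • u + β • v + a₀) (γ • u + δ • v + b₀) = 0 := by
    simp only [hC.add_left, hC.add_right, hC.smul_left, hC.smul_right, smul_eq_mul, hi u hu,
      hi v hv, hCvu, hCuv, (hperp a₀ ha ha').1, (hperp a₀ ha ha').2.2.1, (hperp b₀ hb hb').2.1,
      (hperp b₀ hb hb').2.2.2.1, hmid a₀ b₀ ha ha' hb hb', mul_zero, add_zero, zero_add]
  exact sub_eq_zero.mp hzero

/-- A sesquilinear map vanishing on isotropic vectors is a multiple of the form. -/
theorem exists_eq_smul_of_isotropic [Finite F] (hD : IsHerm D) (hk : 2 ≤ k) {V : Type*}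
    [AddCommGroup V] [Module F V] {B : (Fin k → F) → (Fin k → F) → V} (hB : Sesq D B)
    (h : ∀ u, D.f1 u u = 0 → B u u = 0) : ∃ K : V, ∀ a b, B a b = D.f1 a b • K := by
  obtain ⟨u, v, hu, hv, hvu⟩ := hD.exists_hyperbolic hk
  refine ⟨B v u, fun a b => ?_⟩
  rw [← sub_eq_zero]
  refine (Module.forall_dual_apply_eq_zero_iff F _).mp fun φ => ?_
  obtain ⟨κ, hκ⟩ := sesq_eq_mul hD hk (hB.comp φ) fun w hw => by rw [h w hw, map_zero]
  have h1 := hκ v u
  rw [hvu, one_mul] at h1
  rw [map_sub, map_smul, hκ a b, h1, smul_eq_mul, sub_self]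

/-- An operator whose partial forms vanish at the isotropic vectors commutes with the factor. -/
theorem slotFree_of_isotropic [Finite F] (hD : IsHerm D) (hk : 2 ≤ k) {i : Fin t} {X : Mt}
    (h : ∀ u, D.f1 u u = 0 → beta D i X u u = 0) : SlotFree i X := by
  obtain ⟨u, v, hu, hv, hvu⟩ := hD.exists_hyperbolic hk
  obtain ⟨K, hK⟩ := exists_eq_smul_of_isotropic hD hk (sesq_beta D i X) h
  have hKv : K = beta D i X v u := by rw [hK, hvu, one_smul]
  have hKf : SlotFree i K := hKv ▸ beta_free X v u
  have : X = K := ext_beta (D := D) (i := i) fun a b => by rw [hK, beta_of_free hKf]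
  exact this ▸ hKf

end CfsgLib.Geometric.TensorHerm
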